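import Mathlib
import Cfsg.Agent.Lib.Helper14.OCls.Final
import Cfsg.Agent.Lib.Helper8.OCls.OddMinus

/-!
# Class counts of elements of odd prime order in the minus-type orthogonal groups: `s2675`
-/

set_option autoImplicit false

namespace Cfsg.Agent.Lib.Helper14.OCls

universe u

/-- S2675 (dimension `2 (m' + 1)`). -/
theorem s2675 {F : Type u} [Field F] [Fintype F] {p q : ℕ} [Fact p.Prime] [CharP F p]
    (hF : Fintype.card F = q) (m' r i t : ℕ) (a c : F) (hac : Aniso a c)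
    (hr : r.Prime) (hr2 : r ≠ 2) (hrp : r ≠ p) (hi : i = orderOf (q : ZMod r))
    (ht : t * i = r - 1) :
    Nat.card {C : ConjClasses ↥(Cfsg.isometryGroup F (Cfsg.quadFormMinus m' F a c)) //
      ∃ g : ↥(Cfsg.isometryGroup F (Cfsg.quadFormMinus m' F a c)), ConjClasses.mk g = C ∧
        orderOf g = r} =
      if Odd i then Nat.choose ((m' + 1) / i + t / 2) (t / 2) - 1 -
        (if i ∣ (m' + 1) then Nat.choose ((m' + 1) / i + t / 2 - 1) (t / 2 - 1) else 0)
      else Nat.choose (2 * (m' + 1) / i + t) t - 1 -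
        (if i ∣ 2 * (m' + 1) ∧ Even (2 * (m' + 1) / i) then
          Nat.choose (2 * (m' + 1) / i + t - 1) (t - 1) else 0) :=
  card_classes_minus Cfsg.Agent.Lib.Helper61.OCls.pkgDual Cfsg.Agent.Lib.Helper61.OCls.pkgConj
    Cfsg.Agent.Lib.Helper85.OCls.pkgFree Cfsg.Agent.Lib.Helper85.OCls.pkgArith
    Cfsg.Agent.Lib.Helper4.OCls.pkgZerosMinus Cfsg.Agent.Lib.Helper8.OCls.pkgOddMinus
    Cfsg.Agent.Lib.Helper27.OCls.pkgExOddB exEvenMinus Cfsg.Agent.Lib.Helper60.OCls.pkgCountMinus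
    hF m' r i t a c hac hr hr2 hrp hi ht

end Cfsg.Agent.Lib.Helper14.OCls
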